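import Cfsg.Agent.H492.SphVal

/-!
# Irreducible characters from a collapsed matrix of a `G`-set (helper492)

`Sch x0 R lab rep k τ i0`: `G` acts transitively on the finite set `X`, `R` is a symmetric invariant relation, the
fibres of `lab` are the orbits of the stabilizer of `x0`, `k` is the collapsed matrix of `R`, `τ` the pairing of the
orbits.

* `Sch.count`: `k (lab x) j` points `z` of label `j` with `R x z`;
* `Sch.double`: `|lab⁻¹ i| * k i j = |lab⁻¹ j| * k j i`;
* `Sch.exists_irr`: a simple eigenvalue of `k` gives an irreducible character.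
-/

set_option autoImplicit false

namespace Cfsg.Agent.H492.GSetIrr

open Cfsg Cfsg.Agent.Characters.Core
open scoped ComplexConjugate

universe u v

variable {G : Type u} [Group G] [Finite G] {X : Type v} [MulAction G X] [Finite X]

/-- The collapsed matrix of an invariant relation. -/
structure Sch (G : Type u) [Group G] {X : Type v} [MulAction G X] (x0 : X) (R : X → X → Prop) {m : ℕ}
    (lab : X → Fin m) (rep : Fin m → X) (k : Fin m → Fin m → ℕ) (τ : Fin m → Fin m) (i0 : Fin m) : Prop where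
  tr : ∀ x, ∃ g : G, g • x0 = x
  Rg : ∀ (g : G) x y, R x y → R (g • x) (g • y)
  Rs : ∀ x y, R x y → R y x
  lab_smul : ∀ g : G, g • x0 = x0 → ∀ y, lab (g • y) = lab y
  orb : ∀ x, ∃ g : G, g • x0 = x0 ∧ g • x = rep (lab x)
  lab_rep : ∀ i, lab (rep i) = i
  hi0 : rep i0 = x0
  row : ∀ i j, Nat.card {z : X // R (rep i) z ∧ lab z = j} = k i j
  inv : ∀ i, ∃ g : G, g • x0 = rep i ∧ lab (g⁻¹ • x0) = τ i

variable {x0 : X} {R : X → X → Prop} {m : ℕ} {lab : X → Fin m} {rep : Fin m → X} {k : Fin m → Fin m → ℕ}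
  {τ : Fin m → Fin m} {i0 : Fin m}

omit [Finite G] [Finite X] in
theorem Sch.lab_x0 (h : Sch G x0 R lab rep k τ i0) : lab x0 = i0 := by
  rw [← h.hi0, h.lab_rep]

omit [Finite G] [Finite X] in
theorem Sch.Rg_iff (h : Sch G x0 R lab rep k τ i0) (g : G) (x y : X) : R (g • x) (g • y) ↔ R x y := by
  constructor
  · intro hr
    have h1 := h.Rg g⁻¹ _ _ hr
    rwa [inv_smul_smul, inv_smul_smul] at h1
  · exact h.Rg g x y

omit [Finite G] [Finite X] in
theorem Sch.count (h : Sch G x0 R lab rep k τ i0) (x : X) (j : Fin m) :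
    Nat.card {z : X // R x z ∧ lab z = j} = k (lab x) j := by
  obtain ⟨g, hg, hgx⟩ := h.orb x
  rw [← h.row (lab x) j]
  refine Nat.card_congr
    { toFun := fun z => ⟨g • z.1, ?_, ?_⟩
      invFun := fun z => ⟨g⁻¹ • z.1, ?_, ?_⟩
      left_inv := fun z => Subtype.ext (by simp)
      right_inv := fun z => Subtype.ext (by simp) }
  · rw [← hgx]; exact h.Rg g _ _ z.2.1
  · rw [h.lab_smul g hg]; exact z.2.2
  · have e : g⁻¹ • rep (lab x) = x := by rw [← hgx, inv_smul_smul]
    have h1 := h.Rg g⁻¹ _ _ z.2.1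
    rw [e] at h1
    exact h1
  · have hg' : g⁻¹ • x0 = x0 := by rw [inv_smul_eq_iff, hg]
    rw [h.lab_smul g⁻¹ hg']; exact z.2.2

omit [Finite G] in
/-- the double counting -/
theorem Sch.double (h : Sch G x0 R lab rep k τ i0) (i j : Fin m) :
    Nat.card {x : X // lab x = i} * k i j = Nat.card {x : X // lab x = j} * k j i := by
  classical
  have := Fintype.ofFinite X
  have h1 := Finset.sum_card_bipartiteAbove_eq_sum_card_bipartiteBelow (s := Finset.univ.filter fun x : X => lab x = i)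
    (t := Finset.univ.filter fun x : X => lab x = j) R
  have h2 : ∀ x ∈ Finset.univ.filter (fun x : X => lab x = i),
      ((Finset.univ.filter fun x : X => lab x = j).bipartiteAbove R x).card = k i j := by
    intro x hx
    rw [← (Finset.mem_filter.1 hx).2, ← h.count x j, Nat.card_eq_fintype_card, Fintype.card_subtype]
    congr 1
    ext z
    simp only [Finset.bipartiteAbove, Finset.mem_filter, Finset.mem_univ, true_and]
    tauto
  have h3 : ∀ x ∈ Finset.univ.filter (fun x : X => lab x = j),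
      ((Finset.univ.filter fun x : X => lab x = i).bipartiteBelow R x).card = k j i := by
    intro x hx
    rw [← (Finset.mem_filter.1 hx).2, ← h.count x i, Nat.card_eq_fintype_card, Fintype.card_subtype]
    congr 1
    ext z
    simp only [Finset.bipartiteBelow, Finset.mem_filter, Finset.mem_univ, true_and]
    constructor
    · rintro ⟨a, b⟩; exact ⟨h.Rs _ _ b, a⟩
    · rintro ⟨a, b⟩; exact ⟨b, h.Rs _ _ a⟩
  rw [Finset.sum_congr rfl h2, Finset.sum_congr rfl h3, Finset.sum_const, Finset.sum_const, smul_eq_mul, smul_eq_mul] at h1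
  rw [Nat.card_eq_fintype_card, Nat.card_eq_fintype_card, Fintype.card_subtype, Fintype.card_subtype]
  exact h1

omit [Finite G] [Finite X] in
theorem Sch.card_zero (h : Sch G x0 R lab rep k τ i0) : Nat.card {x : X // lab x = i0} = 1 := by
  have h1 : ∀ x : X, lab x = i0 → x = x0 := by
    intro x hx
    obtain ⟨g, hg, hgx⟩ := h.orb x
    rw [hx, h.hi0] at hgx
    rw [← inv_smul_smul g x, hgx, inv_smul_eq_iff, hg]
  rw [Nat.card_eq_one_iff_unique]
  exact ⟨⟨fun a b => Subtype.ext ((h1 a a.2).trans (h1 b b.2).symm)⟩, ⟨⟨x0, h.lab_x0⟩⟩⟩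

omit [Finite G] in
theorem card_fibers (lab : X → Fin m) : Nat.card X = ∑ i, Nat.card {x : X // lab x = i} := by
  classical
  have := Fintype.ofFinite X
  rw [Nat.card_eq_fintype_card, ← Finset.card_univ, Finset.card_eq_sum_card_fiberwise (f := lab) (t := Finset.univ)
    (fun x _ => Finset.mem_univ _)]
  exact Finset.sum_congr rfl fun i _ => by rw [Nat.card_eq_fintype_card, Fintype.card_subtype]

omit [Finite G] [Finite X] in
/-- the paired orbit -/
theorem Sch.lab_inv (h : Sch G x0 R lab rep k τ i0) (g : G) : lab (g⁻¹ • x0) = τ (lab (g • x0)) := by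
  obtain ⟨a, ha, hax⟩ := h.orb (g • x0)
  obtain ⟨b, hb, hbt⟩ := h.inv (lab (g • x0))
  have h1 : (b⁻¹ * a * g) • x0 = x0 := by
    rw [mul_smul, mul_smul, hax, ← hb, inv_smul_smul]
  have h2 : g⁻¹ • x0 = (b⁻¹ * a * g)⁻¹ • (b⁻¹ • x0) := by
    rw [smul_smul]
    have e : (b⁻¹ * a * g)⁻¹ * b⁻¹ = g⁻¹ * a⁻¹ := by group
    rw [e, mul_smul]
    congr 1
    rw [eq_inv_smul_iff, ha]
  have h3 : (b⁻¹ * a * g)⁻¹ • x0 = x0 := by rw [inv_smul_eq_iff, h1]
  rw [h2, h.lab_smul _ h3, hbt]

omit [Finite G] [Finite X] in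
theorem Sch.sum_eq [Fintype X] (h : Sch G x0 R lab rep k τ i0) (F : Fin m → ℂ) (x : X) [DecidablePred (R x)] :
    ∑ z ∈ Finset.univ.filter (R x), F (lab z) = ∑ j, (k (lab x) j : ℂ) * F j := by
  classical
  rw [← Finset.sum_fiberwise_of_maps_to (s := Finset.univ.filter (R x)) (t := Finset.univ) (g := lab)
    (fun x _ => Finset.mem_univ _)]
  refine Finset.sum_congr rfl fun j _ => ?_
  have h1 : ∀ z ∈ (Finset.univ.filter (R x)).filter (fun z => lab z = j), F (lab z) = F j := by
    intro z hz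
    rw [(Finset.mem_filter.1 hz).2]
  rw [Finset.sum_congr rfl h1, Finset.sum_const, nsmul_eq_mul, ← h.count x j, Nat.card_eq_fintype_card,
    Fintype.card_subtype]
  congr 3
  ext z
  simp only [Finset.mem_filter, Finset.mem_univ, true_and]

/-- **An irreducible character for a simple eigenvalue of the collapsed matrix.** -/
theorem Sch.exists_irr (h : Sch G x0 R lab rep k τ i0) (v : Fin m → ℂ) (μ : ℂ) (hv0 : v i0 = 1)
    (hvτ : ∀ i, v (τ i) = v i) (hv : ∀ i, ∑ j, (k i j : ℂ) * v j = μ * v i)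
    (hu : ∀ x : Fin m → ℂ, (∀ i, ∑ j, (k i j : ℂ) * x j = μ * x i) → ∀ i, x i = x i0 * v i)
    {K : ℂ} (hK : ∑ i, (Nat.card {x : X // lab x = i} : ℂ) * v i ^ 2 = K) (hK0 : K ≠ 0) :
    ∃ χ : IrrCharacter G, (χ : G → ℂ) 1 * K = Nat.card X ∧
      ∀ σ : ℂ →+* ℂ, (∀ i, σ (v i) = v i) → ∀ g, σ ((χ : G → ℂ) g) = (χ : G → ℂ) g := by
  classical
  have := Fintype.ofFinite X
  have := Fintype.ofFinite G
  let H : Subgroup G := MulAction.stabilizer G x0
  have := Fintype.ofFinite H
  have hH : ∀ g, g ∈ H ↔ g • x0 = x0 := fun g => Iff.rfl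
  choose t ht using fun z : {z : X // R x0 z} => h.tr z.1
  have := Fintype.ofFinite {z : X // R x0 z}
  let φ : G → ℂ := fun g => v (lab (g • x0))
  have hl : ∀ a ∈ H, ∀ g, φ (a * g) = φ g := by
    intro a ha g
    show v (lab ((a * g) • x0)) = v (lab (g • x0))
    rw [mul_smul, h.lab_smul a ha]
  have hr : ∀ a ∈ H, ∀ g, φ (g * a) = φ g := by
    intro a ha g
    show v (lab ((g * a) • x0)) = v (lab (g • x0))
    rw [mul_smul, (hH a).1 ha]
  have h1 : φ 1 = 1 := by
    show v (lab ((1 : G) • x0)) = 1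
    rw [one_smul, h.lab_x0, hv0]
  -- the operator
  have hop : ∀ (F : X → ℂ) (g : G), ∑ i, F ((g * t i) • x0) = ∑ z ∈ Finset.univ.filter (R (g • x0)), F z := by
    intro F g
    have e1 : ∑ i, F ((g * t i) • x0) = ∑ z : {z : X // R x0 z}, F (g • z.1) := by
      refine Finset.sum_congr rfl fun z _ => ?_
      rw [mul_smul, ht]
    rw [e1]
    refine Finset.sum_bij' (fun z _ => g • z.1) (fun z hz => ⟨g⁻¹ • z, ?_⟩) ?_ ?_ ?_ ?_ ?_
    · have h2 := h.Rg g⁻¹ _ _ (Finset.mem_filter.1 hz).2
      rwa [inv_smul_smul] at h2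
    · intro z _
      exact Finset.mem_filter.2 ⟨Finset.mem_univ _, h.Rg g _ _ z.2⟩
    · intro z _; exact Finset.mem_univ _
    · intro z _; exact Subtype.ext (by simp)
    · intro z _; simp
    · intro z _; rfl
  have hT : ∀ g, ∑ i, φ (g * t i) = μ * φ g := by
    intro g
    show ∑ i, v (lab ((g * t i) • x0)) = μ * v (lab (g • x0))
    rw [hop (fun z => v (lab z)) g, h.sum_eq v, hv]
  have huniq : ∀ f : G → ℂ, (∀ a ∈ H, ∀ g, f (a * g) = f g) → (∀ a ∈ H, ∀ g, f (g * a) = f g) →
      (∀ g, ∑ i, f (g * t i) = μ * f g) → ∀ g, f g = f 1 * φ g := by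
    intro f fl fr fT
    choose w hw using fun i => h.tr (rep i)
    let x : Fin m → ℂ := fun i => f (w i)
    have hfx : ∀ g, f g = x (lab (g • x0)) := by
      intro g
      obtain ⟨a, ha, hax⟩ := h.orb (g • x0)
      show f g = f (w (lab (g • x0)))
      have h2 : (w (lab (g • x0)))⁻¹ * (a * g) ∈ H := by
        rw [hH, mul_smul, mul_smul, hax, ← hw, inv_smul_smul]
      have h3 := fr _ h2 (w (lab (g • x0)))
      rw [mul_inv_cancel_left] at h3
      rw [← h3, fl a ha]
    have h4 : ∀ i, ∑ j, (k i j : ℂ) * x j = μ * x i := by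
      intro i
      have h5 := fT (w i)
      have h6 : ∑ z, f (w i * t z) = ∑ j, (k i j : ℂ) * x j := by
        rw [Finset.sum_congr rfl fun z _ => hfx (w i * t z), hop (fun z => x (lab z)) (w i), h.sum_eq x, hw,
          h.lab_rep]
      rw [← h6, h5]
    have h7 := hu x h4
    intro g
    rw [hfx g, h7, hfx 1, one_smul, h.lab_x0]
  have hκ : ∑ z, φ z * φ z⁻¹ = Nat.card H * K := by
    have e1 : ∀ z : G, φ z * φ z⁻¹ = v (lab (z • x0)) ^ 2 := by
      intro z
      show v (lab (z • x0)) * v (lab (z⁻¹ • x0)) = _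
      rw [h.lab_inv, hvτ, sq]
    rw [Finset.sum_congr rfl fun z _ => e1 z, ← hK]
    -- the sum over the group
    have e2 : ∀ x : X, (Finset.univ.filter fun g : G => g • x0 = x).card = Nat.card H := by
      intro x
      obtain ⟨a, ha⟩ := h.tr x
      have e3 : Nat.card {g : G // g • x0 = x} = Nat.card H := by
        refine Nat.card_congr
          { toFun := fun g => ⟨a⁻¹ * g.1, ?_⟩
            invFun := fun g => ⟨a * g.1, ?_⟩
            left_inv := fun g => Subtype.ext (by simp)
            right_inv := fun g => Subtype.ext (by simp) }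
        · rw [hH, mul_smul, g.2, ← ha, inv_smul_smul]
        · rw [mul_smul, (hH _).1 g.2, ha]
      rw [← e3, Nat.card_eq_fintype_card, Fintype.card_subtype]
    have e4 : ∑ z : G, v (lab (z • x0)) ^ 2 = ∑ x : X, (Nat.card H : ℂ) * v (lab x) ^ 2 := by
      rw [← Finset.sum_fiberwise_of_maps_to (s := Finset.univ) (t := Finset.univ) (g := fun g : G => g • x0)
        (fun x _ => Finset.mem_univ _)]
      refine Finset.sum_congr rfl fun x _ => ?_
      have e5 : ∀ g ∈ Finset.univ.filter (fun g : G => g • x0 = x), v (lab (g • x0)) ^ 2 = v (lab x) ^ 2 := by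
        intro g hg
        rw [(Finset.mem_filter.1 hg).2]
      rw [Finset.sum_congr rfl e5, Finset.sum_const, nsmul_eq_mul, e2]
    rw [e4, ← Finset.mul_sum]
    congr 1
    rw [← Finset.sum_fiberwise_of_maps_to (s := Finset.univ) (t := Finset.univ) (g := lab)
      (fun x _ => Finset.mem_univ _)]
    refine Finset.sum_congr rfl fun i _ => ?_
    have e6 : ∀ x ∈ Finset.univ.filter (fun x : X => lab x = i), v (lab x) ^ 2 = v i ^ 2 := by
      intro x hx
      rw [(Finset.mem_filter.1 hx).2]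
    rw [Finset.sum_congr rfl e6, Finset.sum_const, nsmul_eq_mul, Nat.card_eq_fintype_card, Fintype.card_subtype]
  have hHne : (Nat.card H : ℂ) ≠ 0 := by exact_mod_cast Nat.card_pos.ne'
  obtain ⟨χ, hχ, hσ, -⟩ := SphVal.exists_irr_of_family_val H t hl hr h1 hT huniq hκ (mul_ne_zero hHne hK0)
  refine ⟨χ, ?_, fun σ hs => hσ σ fun g => hs _⟩
  have hidx : Nat.card G = Nat.card H * Nat.card X := by
    have e7 : H.index = Nat.card X := by
      have hto : MulAction.orbit G x0 = Set.univ := by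
        ext x
        simp only [Set.mem_univ, iff_true]
        exact h.tr x
      rw [show H = MulAction.stabilizer G x0 from rfl, MulAction.index_stabilizer, hto, Set.ncard_univ]
    rw [← e7, Subgroup.card_mul_index]
  rw [hidx] at hχ
  push_cast at hχ
  have h8 : (Nat.card H : ℂ) * ((χ : G → ℂ) 1 * K) = (Nat.card H : ℂ) * Nat.card X := by
    rw [← hχ]; ring
  exact mul_left_cancel₀ hHne h8

end Cfsg.Agent.H492.GSetIrr
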