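import Cfsg.Agent.H492.Fi24P.Point
import Cfsg.Agent.H492.K4Th
import Cfsg.Agent.H597.Degrees

/-!
# Odd degree characters of `Fi24'` (helper492)

`good5_fi24_of` : the irreducible characters of degrees 57477, 555611, 79452373 of `Fi24'` are
rational-valued and vanish at the elements of order 23; so there are five odd-degree characters
fixed by the Galois automorphism of S4547.
-/

set_option autoImplicit false

open Cfsg

noncomputable section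

namespace Cfsg.Agent.H492.K4Fi24

open Cfsg.Agent.H601.K4 Cfsg.Agent.H601.OddDeg Cfsg.Agent.H329.K4 Cfsg.Agent.Characters.Core
open Cfsg.Spor (Fi24)

universe u v

/-- the restriction of a rational-valued irreducible character of odd degree -/
theorem down {d : ℕ} (hd : ¬ 2 ∣ d) (h : ∃ χ : IrrCharacter Fi24, (χ : Fi24 → ℂ) 1 = d ∧
    ∀ σ : ℂ →+* ℂ, ∀ g, σ ((χ : Fi24 → ℂ) g) = (χ : Fi24 → ℂ) g) :
    ∃ χ : IrrCharacter Cfsg.Spor.Fi24', (χ : Cfsg.Spor.Fi24' → ℂ) 1 = d ∧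
      ∀ σ : ℂ →+* ℂ, ∀ g, σ ((χ : Cfsg.Spor.Fi24' → ℂ) g) = (χ : Cfsg.Spor.Fi24' → ℂ) g := by
  have hfin : Finite Fi24 := Cfsg.Agent.R08.FiTwentyFour.finite_Fi24
  have := Fintype.ofFinite Fi24
  obtain ⟨χ, h1, h2⟩ := h
  have h3 : Nat.Coprime (commutator Fi24).index (charDegree (χ : Fi24 → ℂ)) := by
    rw [Cfsg.Agent.R08.FiTwentyFour.index_commutator, Cfsg.Agent.H670.PSing.charDegree_eq_of h1]
    exact (Nat.Prime.coprime_iff_not_dvd Nat.prime_two).2 hd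
  exact ⟨⟨_, Cfsg.Agent.H597.Degrees.isIrr_restrict_of_coprime (commutator Fi24) χ.2 h3⟩, h1,
    fun σ g => h2 σ g⟩

theorem card_eq : Nat.card Cfsg.Spor.Fi24' = 1255205709190661721292800 :=
  Cfsg.Agent.R08.FiTwentyFour.card_commutator

/-- **the rational irreducible characters of degrees 57477, 555611, 79452373 of `Fi24'` vanish at the
elements of order 23.** -/
theorem chars : ∃ a b c : IrrCharacter Cfsg.Spor.Fi24',
    (a : Cfsg.Spor.Fi24' → ℂ) 1 = (57477 : ℕ) ∧ (b : Cfsg.Spor.Fi24' → ℂ) 1 = (555611 : ℕ) ∧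
    (c : Cfsg.Spor.Fi24' → ℂ) 1 = (79452373 : ℕ) ∧
    (∀ σ : ℂ →+* ℂ, ∀ g, σ ((a : Cfsg.Spor.Fi24' → ℂ) g) = (a : Cfsg.Spor.Fi24' → ℂ) g) ∧
    (∀ σ : ℂ →+* ℂ, ∀ g, σ ((b : Cfsg.Spor.Fi24' → ℂ) g) = (b : Cfsg.Spor.Fi24' → ℂ) g) ∧
    (∀ σ : ℂ →+* ℂ, ∀ g, σ ((c : Cfsg.Spor.Fi24' → ℂ) g) = (c : Cfsg.Spor.Fi24' → ℂ) g) ∧
    ∀ t : Cfsg.Spor.Fi24', 23 ∣ orderOf t → (a : Cfsg.Spor.Fi24' → ℂ) t = 0 ∧
      (b : Cfsg.Spor.Fi24' → ℂ) t = 0 ∧ (c : Cfsg.Spor.Fi24' → ℂ) t = 0 := by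
  have hfin : Finite Fi24 := Cfsg.Agent.R08.FiTwentyFour.finite_Fi24
  obtain ⟨a, ha, sa⟩ := down (d := 57477) (by norm_num)
    (by obtain ⟨χ, h1, h2⟩ := Fi24P.Point.exists_c; exact ⟨χ, by rw [h1]; norm_num, h2⟩)
  obtain ⟨b, hb, sb⟩ := down (d := 555611) (by norm_num)
    (by obtain ⟨χ, h1, h2⟩ := Fi24P.Scheme.exists_a; exact ⟨χ, by rw [h1]; norm_num, h2⟩)
  obtain ⟨c, hc, sc⟩ := down (d := 79452373) (by norm_num)
    (by obtain ⟨χ, h1, h2⟩ := Fi24P.Scheme.exists_b; exact ⟨χ, by rw [h1]; norm_num, h2⟩)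
  have h23 : Nat.Prime 23 := by norm_num
  have hz : ∀ (φ : IrrCharacter Cfsg.Spor.Fi24') {d : ℕ}, (φ : Cfsg.Spor.Fi24' → ℂ) 1 = d → 23 ∣ d →
      ∀ t : Cfsg.Spor.Fi24', 23 ∣ orderOf t → (φ : Cfsg.Spor.Fi24' → ℂ) t = 0 := by
    intro φ d h2 h3 t ht
    exact Cfsg.Agent.H707.Odd.eq_zero_of_defect_zero (p := 23) (n := 1) h23
      (by rw [card_eq]; norm_num) (by rw [card_eq]; norm_num) φ.2 h2
      (by simpa using h3) ht
  exact ⟨a, b, c, ha, hb, hc, sa, sb, sc, fun t ht => ⟨hz a ha (by norm_num) t ht,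
    hz b hb (by norm_num) t ht, hz c hc (by norm_num) t ht⟩⟩

theorem good5' (hC : TwoC Cfsg.Spor.Fi24') : Good5 Cfsg.Spor.Fi24' := by
  have hfin : Finite Fi24 := Cfsg.Agent.R08.FiTwentyFour.finite_Fi24
  obtain ⟨a, b, c, ha, hb, hc, sa, sb, sc, hz⟩ := chars
  have h23 : Nat.Prime 23 := by norm_num
  have := Fact.mk h23
  obtain ⟨t, ht⟩ := exists_prime_orderOf_dvd_card' (G := Cfsg.Spor.Fi24') 23
    (by rw [card_eq]; norm_num)
  have hg : ∀ (φ : IrrCharacter Cfsg.Spor.Fi24') {d : ℕ}, (φ : Cfsg.Spor.Fi24' → ℂ) 1 = d →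
      ¬ 2 ∣ d →
      (∀ σ : ℂ →+* ℂ, ∀ x, σ ((φ : Cfsg.Spor.Fi24' → ℂ) x) = (φ : Cfsg.Spor.Fi24' → ℂ) x) →
      Good (φ : Cfsg.Spor.Fi24' → ℂ) := by
    intro φ d h1 h2 h3
    refine good_of hC ⟨φ.2, ?_⟩ (K4Th.sigFix_of_all (isIrr_isCharacter φ.2) h3)
    rw [Cfsg.Agent.H670.PSing.charDegree_eq_of h1]
    exact h2
  have hne : ∀ (χ ψ : IrrCharacter Cfsg.Spor.Fi24') (m n : ℕ),
      (χ : Cfsg.Spor.Fi24' → ℂ) 1 = (m : ℂ) → (ψ : Cfsg.Spor.Fi24' → ℂ) 1 = (n : ℂ) → m ≠ n →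
      (χ : Cfsg.Spor.Fi24' → ℂ) ≠ ψ := by
    intro χ ψ m n hm hn hmn h
    apply hmn
    rw [h, hn] at hm
    exact_mod_cast hm.symm
  have ht' : 23 ∣ orderOf t := by rw [ht]
  refine good5_of_four hC ?_ (hg a ha (by norm_num) sa) (hg b hb (by norm_num) sb)
    (hg c hc (by norm_num) sc) (hne _ _ _ _ ha hb (by norm_num)) (hne _ _ _ _ ha hc (by norm_num))
    (hne _ _ _ _ hb hc (by norm_num)) (t := t) ?_ (hz t ht').1 (hz t ht').2.1 (hz t ht').2.2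
  · rw [card_eq]; decide
  · rw [ht]; decide

/-- **Row (A) of S4547 for `Fi24'`**; `hC`, `hC'` : the centralizer condition for the principal
2-block. -/
theorem good5_fi24_of {S : Type u} [Group S] [Finite S] (h : Cfsg.Spor.IsoFi24' S) (hC : TwoC S)
    (hC' : TwoC Cfsg.Spor.Fi24') : Good5 S := by
  have hfin : Finite Fi24 := Cfsg.Agent.R08.FiTwentyFour.finite_Fi24
  exact good5_of_equiv hC h.some (good5' hC')

end Cfsg.Agent.H492.K4Fi24
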