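import Cfsg.Agent.H492.ThRat
import Cfsg.Agent.H664.Eight.Base

/-!
# The Thompson group has at least nine character degrees (helper492, for S4899)
-/

set_option autoImplicit false

namespace Cfsg.Agent.H492.RowTh

open Cfsg Cfsg.Agent.Characters.Core Cfsg.Agent.H664.Eight

universe u

theorem eight_th' : Eight Spor.Th := by
  obtain ⟨hfin, -, -, -⟩ := Cfsg.Agent.Th.Main1700.final
  refine eight_of_chain [1, 4123, 30875, 61256, 2450240, 3376737, 4881384, 28861000, 51684750]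
    (by decide) (by decide) ?_
  intro d hd
  simp only [List.mem_cons, List.not_mem_nil, or_false] at hd
  rcases hd with rfl | rfl | rfl | rfl | rfl | rfl | rfl | rfl | rfl
  · exact one_mem
  · obtain ⟨χ, hχ, -⟩ := H492.ThRat.val_4123
    exact ⟨χ, H670.PSing.charDegree_eq_of hχ⟩
  · obtain ⟨χ, hχ, -⟩ := H492.ThRat.val_30875
    exact ⟨χ, H670.PSing.charDegree_eq_of hχ⟩
  · obtain ⟨χ, hχ⟩ := H492.FactsTh.exists_61256
    exact ⟨χ, H670.PSing.charDegree_eq_of hχ⟩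
  · obtain ⟨χ, hχ, -⟩ := H492.ThRat.val_2450240
    exact ⟨χ, H670.PSing.charDegree_eq_of hχ⟩
  · obtain ⟨χ, hχ, -⟩ := H492.ThRat.val_3376737
    exact ⟨χ, H670.PSing.charDegree_eq_of hχ⟩
  · obtain ⟨χ, hχ⟩ := H492.FactsTh.exists_4881384
    exact ⟨χ, H670.PSing.charDegree_eq_of hχ⟩
  · obtain ⟨χ, hχ⟩ := H492.FactsTh.exists_28861000
    exact ⟨χ, H670.PSing.charDegree_eq_of hχ⟩
  · obtain ⟨χ, hχ⟩ := H492.FactsTh.exists_51684750
    exact ⟨χ, H670.PSing.charDegree_eq_of hχ⟩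

/-- **`Th`.** -/
theorem eight_th {S : Type u} [Group S] (h : Spor.IsoTh S) : Eight S := by
  obtain ⟨e⟩ := h
  exact eight_th'.of_equiv e

end Cfsg.Agent.H492.RowTh
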